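import Cfsg.Agent.H35.W.TCMain

/-!
# Coxeter relators listed once per unordered pair (helper35)
-/

set_option autoImplicit false

namespace Cfsg.Agent.H35.W

section Half

variable {γ : Type} [DecidableEq γ]

/-- every split relator of `all` is in `half`, or its swap is, or its two halves agree -/
def halfChk (all half : List (List γ × List γ)) : Bool :=
  all.all (fun r => decide (r ∈ half) || (decide ((r.2, r.1) ∈ half) || decide (r.1 = r.2)))

theorem half_splits {K : Type*} [Group K] (f : γ → K) (hf : ∀ x, f x * f x = 1)
    (all half : List (List γ × List γ)) (hok : halfChk all half = true)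
    (h : ∀ r ∈ half, uw f (r.1 ++ r.2.reverse) = 1) :
    ∀ r ∈ all, uw f (r.1 ++ r.2.reverse) = 1 := by
  intro r hr
  unfold halfChk at hok
  rw [List.all_eq_true] at hok
  have h1 := hok r hr
  simp only [Bool.or_eq_true, decide_eq_true_eq] at h1
  rcases h1 with h1 | h1 | h1
  · exact h r h1
  · have h2 : uw f (r.2 ++ r.1.reverse) = 1 := h _ h1
    rw [uw_append, uw_reverse f hf, mul_inv_eq_one] at h2 ⊢
    exact h2.symm
  · rw [h1, uw_append, uw_reverse f hf, mul_inv_cancel]

end Half

end Cfsg.Agent.H35.W
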