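import Cfsg.Agent.H35.W.TCMain
import Cfsg.Agent.H10.Bsgs

/-!
# Orbit forests on a wide permutation table (helper35)

A label table gives every point a class, a rank and the index of a subgroup word moving it to a
point of the same class and smaller rank; the points of rank `0` are the listed roots.  Then the
points of one class lie in one orbit of the subgroup.
-/

set_option autoImplicit false

namespace Cfsg.Agent.H35.W

open Cfsg.Agent.H10

/-- forest check at `p`; the fields of `lab p` (8 bits each) are class, rank, word index -/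
noncomputable def forOK {γ : Type} (D : PData γ) (lab : ℕ → ℕ) (sw : List (List γ))
    (roots : List ℕ) (p : ℕ) : Bool :=
  cond (Nat.beq (fld 8 (lab p) 1) 0) (Nat.beq p (roots.getD (fld 8 (lab p) 0) D.N))
    (Nat.beq (fld 8 (lab (D.walk (sw.getD (fld 8 (lab p) 2) []) p)) 0) (fld 8 (lab p) 0) &&
      Nat.ble (Nat.succ (fld 8 (lab (D.walk (sw.getD (fld 8 (lab p) 2) []) p)) 1))
        (fld 8 (lab p) 1))

variable {γ : Type} {D : PData γ} {G : Type*} [Group G]

/-- every point is moved to the root of its class by an element of the subgroup -/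
theorem forest_root (gen : γ → G) (ρ : G →* Equiv.Perm (Fin D.N))
    (hw : ∀ (w : List γ) (p : Fin D.N), D.walk w p.val = ((ρ (uw gen w))⁻¹ p).val)
    (Hs : Subgroup G) (lab : ℕ → ℕ) (sw : List (List γ)) (roots : List ℕ)
    (hK : ∀ w ∈ sw, uw gen w ∈ Hs)
    (hok : ∀ p, p < D.N → forOK D lab sw roots p = true) :
    ∀ (r : ℕ) (p : Fin D.N), fld 8 (lab p.val) 1 = r →
      ∃ g ∈ Hs, (ρ g p).val = roots.getD (fld 8 (lab p.val) 0) D.N := by
  intro r
  induction r using Nat.strong_induction_on with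
  | _ r ih =>
    intro p hr
    have h := hok p.val p.isLt
    unfold forOK at h
    by_cases h0 : r = 0
    · have hb0 : Nat.beq (fld 8 (lab p.val) 1) 0 = true := by rw [hr, h0]; rfl
      rw [hb0, cond_true, Nat.beq_eq] at h
      exact ⟨1, Hs.one_mem, by rw [map_one]; exact h⟩
    · have hb0 : Nat.beq (fld 8 (lab p.val) 1) 0 = false := by
        rw [hr, Bool.eq_false_iff]; intro hb; rw [Nat.beq_eq] at hb; exact h0 hb
      rw [hb0, cond_false, Bool.and_eq_true, Nat.beq_eq, Nat.ble_eq] at h
      have hmem := getD_mem_or sw (fld 8 (lab p.val) 2) []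
      generalize sw.getD (fld 8 (lab p.val) 2) [] = w at h hmem
      have hwK : uw gen w ∈ Hs := by
        rcases hmem with hm | rfl
        · exact hK w hm
        · rw [uw_nil]; exact Hs.one_mem
      rw [hw w p] at h
      obtain ⟨g', hg', e⟩ := ih _ (by omega) ((ρ (uw gen w))⁻¹ p) rfl
      refine ⟨g' * (uw gen w)⁻¹, Hs.mul_mem hg' (Hs.inv_mem hwK), ?_⟩
      rw [map_mul, Equiv.Perm.mul_apply, map_inv, e, h.1]

/-- points of the same class are in the same orbit of the subgroup -/
theorem forest_orbit (gen : γ → G) (ρ : G →* Equiv.Perm (Fin D.N))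
    (hw : ∀ (w : List γ) (p : Fin D.N), D.walk w p.val = ((ρ (uw gen w))⁻¹ p).val)
    (Hs : Subgroup G) (lab : ℕ → ℕ) (sw : List (List γ)) (roots : List ℕ)
    (hK : ∀ w ∈ sw, uw gen w ∈ Hs)
    (hok : ∀ p, p < D.N → forOK D lab sw roots p = true) (p q : Fin D.N)
    (hc : fld 8 (lab p.val) 0 = fld 8 (lab q.val) 0) : ∃ g ∈ Hs, ρ g p = q := by
  obtain ⟨g1, hg1, e1⟩ := forest_root gen ρ hw Hs lab sw roots hK hok _ p rfl
  obtain ⟨g2, hg2, e2⟩ := forest_root gen ρ hw Hs lab sw roots hK hok _ q rfl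
  refine ⟨g2⁻¹ * g1, Hs.mul_mem (Hs.inv_mem hg2) hg1, ?_⟩
  have e3 : ρ g1 p = ρ g2 q := Fin.ext (by rw [e1, e2, hc])
  rw [map_mul, Equiv.Perm.mul_apply, e3, map_inv, perm_inv_apply_self]

end Cfsg.Agent.H35.W
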