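import Cfsg.Agent.H35.TCPerm

/-!
# Permutation-representation certificates with 24-bit point names (helper35)

Same as `Cfsg.Agent.H35.PData` and `perm_rep`, for tables with up to `2 ^ 24` points.
-/

set_option autoImplicit false

namespace Cfsg.Agent.H35.W

/-- Data of a permutation-representation certificate. -/
structure PData (γ : Type) where
  /-- packed row of a point: 24 bits per generator, then class and rank -/
  row : ℕ → ℕ
  /-- number of points -/
  N : ℕ
  /-- field index of a generator -/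
  gi : γ → ℕ
  /-- all generators -/
  gens : List γ
  /-- field index of the class -/
  ng : ℕ

noncomputable section

namespace PData

variable {γ : Type} (D : PData γ)

/-- image of point `p` under generator `x` -/
def act (p : ℕ) (x : γ) : ℕ := fld 24 (D.row p) (D.gi x)

/-- class of a point -/
def cls (p : ℕ) : ℕ := fld 24 (D.row p) D.ng

/-- rank of a point inside its class -/
def rk (p : ℕ) : ℕ := fld 24 (D.row p) (Nat.succ D.ng)

/-- image of a point under a word (applied letter by letter) -/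
def walk : List γ → ℕ → ℕ := fun w =>
  List.rec (motive := fun _ => ℕ → ℕ) (fun p => p) (fun x _ ih p => ih (D.act p x)) w

theorem walk_nil (p : ℕ) : D.walk [] p = p := rfl

theorem walk_cons (x : γ) (w : List γ) (p : ℕ) : D.walk (x :: w) p = D.walk w (D.act p x) := rfl

/-- generators act as involutions preserving `[0, N)` at `p` -/
def invOK (p : ℕ) : Bool :=
  D.gens.all (fun x => Nat.ble (Nat.succ (D.act p x)) D.N && Nat.beq (D.act (D.act p x) x) p)

/-- split relators hold at `p` -/
def relOK (rels : List (List γ × List γ)) (p : ℕ) : Bool :=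
  rels.all (fun r => Nat.beq (D.walk r.1 p) (D.walk r.2 p))

/-- iterate the column `c` of the table -/
def iterCol (c : ℕ) : ℕ → ℕ → ℕ := fun k =>
  Nat.rec (motive := fun _ => ℕ → ℕ) (fun p => p) (fun _ ih p => ih (fld 24 (D.row p) c)) k

theorem iterCol_zero (c p : ℕ) : D.iterCol c 0 p = p := rfl

theorem iterCol_succ (c k p : ℕ) :
    D.iterCol c (k + 1) p = D.iterCol c k (fld 24 (D.row p) c) := rfl

/-- power relators `w ^ k = u` hold at `p`: column `c` is the image under `w`, and iterating
it `k` times gives the image under `u` -/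
def powOK (prels : List (List γ × ℕ × ℕ × List γ)) (p : ℕ) : Bool :=
  prels.all (fun r => Nat.beq (D.walk r.1 p) (fld 24 (D.row p) r.2.2.1) &&
    Nat.beq (D.iterCol r.2.2.1 r.2.1 p) (D.walk r.2.2.2 p))

/-- `p` is `0` or some generator moves it to a smaller point -/
def trOK (p : ℕ) : Bool :=
  Nat.beq p 0 || D.gens.any (fun x => Nat.ble (Nat.succ (D.act p x)) p)

/-- all point checks -/
def ptOK (rels : List (List γ × List γ)) (prels : List (List γ × ℕ × ℕ × List γ)) (p : ℕ) :
    Bool :=
  D.invOK p && (D.relOK rels p && (D.powOK prels p && D.trOK p))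

/-- the subgroup words fix `0` -/
def subOK (sw : List (List γ)) : Bool := sw.all (fun w => Nat.beq (D.walk w 0) 0)

/-- class check at `p`: subgroup words preserve the class; rank-`0` points are the listed roots;
other points are moved to smaller rank by a subgroup word or its reverse -/
def orbOK (sw : List (List γ)) (roots : List ℕ) (p : ℕ) : Bool :=
  sw.all (fun w => Nat.beq (D.cls (D.walk w p)) (D.cls p)) &&
  (if Nat.beq (D.rk p) 0 then Nat.beq p (roots.getD (D.cls p) D.N)
   else (sw ++ sw.map List.reverse).any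
      (fun w => Nat.ble (Nat.succ (D.rk (D.walk w p))) (D.rk p)))

end PData

section Main

variable {γ : Type} (D : PData γ) (rels : List (List γ × List γ))
  (prels : List (List γ × ℕ × ℕ × List γ)) (sw : List (List γ))

/-- The checked facts of a permutation certificate. -/
structure PermOK : Prop where
  hN : 0 < D.N
  hgens : ∀ x : γ, x ∈ D.gens
  hpt : ∀ p, p < D.N → D.ptOK rels prels p = true
  hsub : D.subOK sw = true

variable {D rels prels sw}

theorem PermOK.inv (h : PermOK D rels prels sw) (x : γ) (p : ℕ) (hp : p < D.N) :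
    D.act p x < D.N ∧ D.act (D.act p x) x = p := by
  have h1 := h.hpt p hp
  unfold PData.ptOK at h1
  rw [Bool.and_eq_true] at h1
  have h2 := h1.1
  unfold PData.invOK at h2
  rw [List.all_eq_true] at h2
  have h3 := h2 x (h.hgens x)
  rw [Bool.and_eq_true, Nat.ble_eq, Nat.beq_eq] at h3
  exact ⟨h3.1, h3.2⟩

theorem PermOK.rel (h : PermOK D rels prels sw) (r : List γ × List γ) (hr : r ∈ rels) (p : ℕ)
    (hp : p < D.N) : D.walk r.1 p = D.walk r.2 p := by
  have h1 := h.hpt p hp
  unfold PData.ptOK at h1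
  rw [Bool.and_eq_true, Bool.and_eq_true] at h1
  have h2 := h1.2.1
  unfold PData.relOK at h2
  rw [List.all_eq_true] at h2
  have h3 := h2 r hr
  rw [Nat.beq_eq] at h3
  exact h3

theorem PermOK.tr (h : PermOK D rels prels sw) (p : ℕ) (hp : p < D.N) :
    p = 0 ∨ ∃ x : γ, D.act p x < p := by
  have h1 := h.hpt p hp
  unfold PData.ptOK at h1
  rw [Bool.and_eq_true, Bool.and_eq_true, Bool.and_eq_true] at h1
  have h2 := h1.2.2.2
  unfold PData.trOK at h2
  rw [Bool.or_eq_true] at h2
  rcases h2 with h2 | h2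
  · left; rw [Nat.beq_eq] at h2; exact h2
  · right
    rw [List.any_eq_true] at h2
    obtain ⟨x, _, hx⟩ := h2
    rw [Nat.ble_eq] at hx
    exact ⟨x, hx⟩

/-- The permutation of `Fin N` given by a generator. -/
def fperm (h : PermOK D rels prels sw) (x : γ) : Equiv.Perm (Fin D.N) where
  toFun p := ⟨D.act p.val x, (h.inv x p.val p.isLt).1⟩
  invFun p := ⟨D.act p.val x, (h.inv x p.val p.isLt).1⟩
  left_inv p := Fin.ext (h.inv x p.val p.isLt).2
  right_inv p := Fin.ext (h.inv x p.val p.isLt).2

theorem fperm_apply (h : PermOK D rels prels sw) (x : γ) (p : Fin D.N) :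
    ((fperm h x) p).val = D.act p.val x := rfl

theorem fperm_sq (h : PermOK D rels prels sw) (x : γ) : fperm h x * fperm h x = 1 := by
  ext p
  rw [Equiv.Perm.mul_apply, fperm_apply, fperm_apply]
  exact (h.inv x p.val p.isLt).2

theorem walk_fperm (h : PermOK D rels prels sw) (w : List γ) (p : Fin D.N) :
    D.walk w p.val = (((uw (fperm h) w)⁻¹) p).val := by
  induction w generalizing p with
  | nil => rw [uw_nil, inv_one]; rfl
  | cons x w ih =>
    rw [PData.walk_cons, ← fperm_apply h x p, ih, uw_cons, mul_inv_rev, Equiv.Perm.mul_apply,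
      inv_of_sq (fperm_sq h x)]

theorem fperm_rel (h : PermOK D rels prels sw) (r : List γ × List γ) (hr : r ∈ rels) :
    uw (fperm h) (r.1 ++ r.2.reverse) = 1 := by
  rw [uw_append, uw_reverse _ (fperm_sq h), mul_inv_eq_one]
  have key : (uw (fperm h) r.1)⁻¹ = (uw (fperm h) r.2)⁻¹ := by
    ext p
    rw [← walk_fperm, ← walk_fperm]
    exact h.rel r hr p.val p.isLt
  exact inv_injective key

theorem PermOK.pow (h : PermOK D rels prels sw) (r : List γ × ℕ × ℕ × List γ) (hr : r ∈ prels)
    (p : ℕ) (hp : p < D.N) : D.walk r.1 p = fld 24 (D.row p) r.2.2.1 ∧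
      D.iterCol r.2.2.1 r.2.1 p = D.walk r.2.2.2 p := by
  have h1 := h.hpt p hp
  unfold PData.ptOK at h1
  rw [Bool.and_eq_true, Bool.and_eq_true, Bool.and_eq_true] at h1
  have h2 := h1.2.2.1
  unfold PData.powOK at h2
  rw [List.all_eq_true] at h2
  have h3 := h2 r hr
  rw [Bool.and_eq_true, Nat.beq_eq, Nat.beq_eq] at h3
  exact h3

theorem fperm_pow (h : PermOK D rels prels sw) (r : List γ × ℕ × ℕ × List γ) (hr : r ∈ prels) :
    uw (fperm h) r.1 ^ r.2.1 = uw (fperm h) r.2.2.2 := by
  have hcol : ∀ p : Fin D.N, fld 24 (D.row p.val) r.2.2.1 = ((uw (fperm h) r.1)⁻¹ p).val := by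
    intro p
    rw [← walk_fperm]
    exact ((h.pow r hr p.val p.isLt).1).symm
  have hit : ∀ (k : ℕ) (p : Fin D.N),
      D.iterCol r.2.2.1 k p.val = (((uw (fperm h) r.1)⁻¹ ^ k) p).val := by
    intro k
    induction k with
    | zero => intro p; rw [PData.iterCol_zero, pow_zero]; rfl
    | succ k ih =>
      intro p
      rw [PData.iterCol_succ, hcol, ih, pow_succ, Equiv.Perm.mul_apply]
  have h1 : (uw (fperm h) r.1)⁻¹ ^ r.2.1 = (uw (fperm h) r.2.2.2)⁻¹ := by
    ext p
    rw [← hit, ← walk_fperm]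
    exact (h.pow r hr p.val p.isLt).2
  rw [inv_pow] at h1
  exact inv_injective h1

/-- The permutation representation attached to a checked certificate. -/
theorem perm_rep {G : Type} [Group G] (gen : γ → G)
    (UP : ∀ f : γ → Equiv.Perm (Fin D.N), (∀ x, f x * f x = 1) →
      (∀ r ∈ rels, uw f (r.1 ++ r.2.reverse) = 1) →
      (∀ r ∈ prels, uw f r.1 ^ r.2.1 = uw f r.2.2.2) →
      ∃ φ : G →* Equiv.Perm (Fin D.N), ∀ x, φ (gen x) = f x)
    (h : PermOK D rels prels sw) :
    ∃ ρ : G →* Equiv.Perm (Fin D.N),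
      (∀ (w : List γ) (p : Fin D.N), D.walk w p.val = ((ρ (uw gen w))⁻¹ p).val) ∧
      (∀ ω : Fin D.N, ∃ g : G, ρ g ⟨0, h.hN⟩ = ω) ∧
      (∀ w ∈ sw, ρ (uw gen w) ⟨0, h.hN⟩ = ⟨0, h.hN⟩) := by
  obtain ⟨ρ, hρ⟩ := UP (fperm h) (fperm_sq h) (fperm_rel h) (fperm_pow h)
  have hfun : (fun x => ρ (gen x)) = fperm h := funext hρ
  have hw : ∀ (w : List γ) (p : Fin D.N), D.walk w p.val = ((ρ (uw gen w))⁻¹ p).val := by
    intro w p
    rw [uw_map, hfun]
    exact walk_fperm h w p
  refine ⟨ρ, hw, ?_, ?_⟩
  · intro ω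
    obtain ⟨n, hn⟩ := ω
    induction n using Nat.strong_induction_on with
    | _ n ih =>
      rcases h.tr n hn with h0 | ⟨x, hx⟩
      · subst h0; exact ⟨1, by simp⟩
      · obtain ⟨g, hg⟩ := ih (D.act n x) hx (h.inv x n hn).1
        refine ⟨gen x * g, ?_⟩
        rw [map_mul, Equiv.Perm.mul_apply, hg, hρ]
        apply Fin.ext
        rw [fperm_apply]
        exact (h.inv x n hn).2
  · intro w hwm
    have h1 := h.hsub
    unfold PData.subOK at h1
    rw [List.all_eq_true] at h1
    have h2 := h1 w hwm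
    rw [Nat.beq_eq] at h2
    have h3 := hw w ⟨0, h.hN⟩
    rw [h2] at h3
    have h4 : (ρ (uw gen w))⁻¹ ⟨0, h.hN⟩ = ⟨0, h.hN⟩ := Fin.ext h3.symm
    rw [Equiv.Perm.inv_eq_iff_eq] at h4
    exact h4.symm

/-- The classes of a checked certificate are the orbits of the subgroup generated by the
subgroup words. -/
theorem orbits_eq_classes {G : Type} [Group G] (gen : γ → G) (hgen : ∀ x, gen x * gen x = 1)
    (roots : List ℕ) (ho : ∀ p, p < D.N → D.orbOK sw roots p = true)
    (ρ : G →* Equiv.Perm (Fin D.N))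
    (hw : ∀ (w : List γ) (p : Fin D.N), D.walk w p.val = ((ρ (uw gen w))⁻¹ p).val)
    (Hs : Subgroup G) (hHs : Hs = Subgroup.closure {g | ∃ w ∈ sw, g = uw gen w}) :
    ∀ ω ω' : Fin D.N, (∃ g ∈ Hs, ρ g ω = ω') ↔ D.cls ω'.val = D.cls ω.val := by
  have hA0 : ∀ w ∈ sw, ∀ p, p < D.N → D.cls (D.walk w p) = D.cls p := by
    intro w hwm p hp
    have h1 := ho p hp
    unfold PData.orbOK at h1
    rw [Bool.and_eq_true, List.all_eq_true] at h1
    have h2 := h1.1 w hwm
    rw [Nat.beq_eq] at h2
    exact h2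
  have hgenmem : ∀ w ∈ sw, uw gen w ∈ Hs := by
    intro w hwm
    rw [hHs]
    exact Subgroup.subset_closure ⟨w, hwm, rfl⟩
  have hA : ∀ g ∈ Hs, ∀ ω : Fin D.N, D.cls (ρ g ω).val = D.cls ω.val := by
    intro g hg
    rw [hHs] at hg
    induction hg using Subgroup.closure_induction with
    | mem x hx =>
      obtain ⟨w, hwm, rfl⟩ := hx
      intro ω
      have h1 := hA0 w hwm (ρ (uw gen w) ω).val (ρ (uw gen w) ω).isLt
      rw [hw w (ρ (uw gen w) ω)] at h1
      rw [perm_inv_apply_self] at h1
      exact h1.symm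
    | one => intro ω; simp
    | mul x y _ _ hx hy =>
      intro ω
      rw [map_mul, Equiv.Perm.mul_apply, hx, hy]
    | inv x _ hx =>
      intro ω
      have h1 := hx (ρ x⁻¹ ω)
      rw [map_inv, perm_apply_inv_self] at h1
      rw [map_inv]
      exact h1.symm
  have hB : ∀ n : ℕ, ∀ ω : Fin D.N, D.rk ω.val = n → ∃ g ∈ Hs, D.rk (ρ g ω).val = 0 := by
    intro n
    induction n using Nat.strong_induction_on with
    | _ n ih =>
      intro ω hω
      by_cases h0 : D.rk ω.val = 0
      · exact ⟨1, Subgroup.one_mem _, by simpa using h0⟩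
      · have h1 := ho ω.val ω.isLt
        unfold PData.orbOK at h1
        rw [Bool.and_eq_true] at h1
        have h2 := h1.2
        have hb : Nat.beq (D.rk ω.val) 0 = false := by
          rw [Bool.eq_false_iff]; intro hb; rw [Nat.beq_eq] at hb; exact h0 hb
        rw [hb] at h2
        simp only [Bool.false_eq_true, if_false] at h2
        rw [List.any_eq_true] at h2
        obtain ⟨w, hwm, hlt⟩ := h2
        rw [Nat.ble_eq] at hlt
        have hmem : (uw gen w)⁻¹ ∈ Hs := by
          rw [List.mem_append] at hwm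
          rcases hwm with hwm | hwm
          · exact Subgroup.inv_mem _ (hgenmem w hwm)
          · rw [List.mem_map] at hwm
            obtain ⟨w0, hw0, rfl⟩ := hwm
            rw [uw_reverse gen hgen, inv_inv]
            exact hgenmem w0 hw0
        have hlt' : D.rk (ρ (uw gen w)⁻¹ ω).val < n := by
          rw [← hω, map_inv, ← hw w ω]
          exact hlt
        obtain ⟨g2, hg2, hr⟩ := ih _ hlt' (ρ (uw gen w)⁻¹ ω) rfl
        refine ⟨g2 * (uw gen w)⁻¹, Subgroup.mul_mem _ hg2 hmem, ?_⟩
        rw [map_mul, Equiv.Perm.mul_apply]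
        exact hr
  have hroot : ∀ r : Fin D.N, D.rk r.val = 0 → r.val = roots.getD (D.cls r.val) D.N := by
    intro r hr
    have h1 := ho r.val r.isLt
    unfold PData.orbOK at h1
    rw [Bool.and_eq_true] at h1
    have h2 := h1.2
    have hb : Nat.beq (D.rk r.val) 0 = true := by rw [Nat.beq_eq]; exact hr
    rw [hb] at h2
    simp only [if_true] at h2
    rw [Nat.beq_eq] at h2
    exact h2
  intro ω ω'
  constructor
  · rintro ⟨g, hg, rfl⟩
    exact hA g hg ω
  · intro hc
    obtain ⟨g, hg, hr⟩ := hB _ ω rfl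
    obtain ⟨g', hg', hr'⟩ := hB _ ω' rfl
    have e1 := hroot _ hr
    have e2 := hroot _ hr'
    rw [hA g hg] at e1
    rw [hA g' hg', hc] at e2
    have e3 : ρ g ω = ρ g' ω' := Fin.ext (e1.trans e2.symm)
    refine ⟨g'⁻¹ * g, Subgroup.mul_mem _ (Subgroup.inv_mem _ hg') hg, ?_⟩
    rw [map_mul, Equiv.Perm.mul_apply, e3, map_inv, perm_inv_apply_self]

end Main

end

end Cfsg.Agent.H35.W
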